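import Cfsg.Agent.Lib.H84.Star15
import Cfsg.Agent.Lib.H80.SU1
import Cfsg.Agent.Lib.H81.Section

/-!
# Uniqueness of the local block over an element of the defect group whose fusion is controlled by the defect group
-/

set_option autoImplicit false
set_option linter.unusedSectionVars false
set_option linter.unusedVariables false

namespace H67.UniqLoc

open Cfsg H20.Loc H20.GA H80.GA H80.GB H80.GC H80.GD H80.GE H80.GF H80.GJ H80.FS H80.FS3 H84.RG H18.CharBasic H18.CharOrtho H18.CharInd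
open H20.Blk H20.Orth H20.Ind H20.Height H20.Defect H80.BR1 H80.BR2 H81.Section H84.Star

universe u

variable {M : Ideal AlgInt} [M.IsMaximal] {G : Type u} [Group G] [Finite G] {p : ℕ}
variable [Fact p.Prime] [CharP (ResF M) p] [Algebra (ZMod p) (ResF M)] [Algebra.IsAlgebraic (ZMod p) (ResF M)]
  [IsAlgClosed (ResF M)]

/-- conjugation fixes the elements supported on the centralizer -/
theorem cj_fix {k G : Type*} [Field k] [Group G] {H : Subgroup G} {a : MonoidAlgebra k G} (ha : a ∈ Sp k H) {g : G}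
    (hg : ∀ x ∈ H, g * x = x * g) : cj g a = a := by
  apply ext'
  intro x
  rw [coeff_cj]
  by_cases hx : x ∈ H
  · have : g⁻¹ * x * g = x := by rw [mul_assoc, ← hg x hx, inv_mul_cancel_left]
    rw [this]
  · rw [coeff_eq_zero_of_mem_Sp ha hx]
    apply coeff_eq_zero_of_mem_Sp ha
    intro h
    have h2 := hg _ h
    apply hx
    have h3 : g⁻¹ * x * g = x := by
      have h4 : g * (g⁻¹ * x * g) = x * g := by group
      rw [h4] at h2
      exact (mul_right_cancel h2).symm
    rwa [h3] at h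

/-- a pair over `u` is below the maximal pair -/
theorem sle_of {M : Ideal AlgInt} [M.IsMaximal] {G : Type u} [Group G] [Finite G] {p : ℕ}
    [Fact p.Prime] [CharP (ResF M) p] [Algebra (ZMod p) (ResF M)] [Algebra.IsAlgebraic (ZMod p) (ResF M)]
    [IsAlgClosed (ResF M)] (hM : IsPModular p M) {B : Set (IrrCharacter G)} (hB : IsPBlock M B) {D : Subgroup G}
    {e : MonoidAlgebra (ResF M) G} (hmax : IsMax p ⊤ (ebar M B) D e) {u : G} (hu : u ∈ D)
    (hc : ∀ g : G, g * u * g⁻¹ ∈ D → ∃ d ∈ D, g * u * g⁻¹ = d * u * d⁻¹) {f : Set (IrrCharacter (C u))}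
    (hf : IsInducedBlock M (C u) f B) : SLE p ⊤ (Subgroup.zpowers u) (bl M (C u) f) D e := by
  have hzo : ∃ k : ℕ, orderOf u = p ^ k := order_of_mem hmax.of.pair.pgr ⟨u, hu⟩
  have hp : PairOf p ⊤ (ebar M B) (Subgroup.zpowers u) (bl M _ f) := (ind_iff hM hzo hf.1 hB).1 hf
  obtain ⟨g, -, h1⟩ := sle_max hmax hp
  have h2 : cs g (Subgroup.zpowers u) ≤ D := h1.le' hmax.of.pair
  have h3 : g * u * g⁻¹ ∈ D := by
    apply h2
    rw [H80.SU1.cs_zp]
    exact Subgroup.mem_zpowers _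
  obtain ⟨d, hd, h4⟩ := hc g h3
  have h5 := sle_cj h1 d⁻¹
  rw [← cs_mul, ← cj_mul, cs_of_mem (D.inv_mem hd), cs_of_mem (Subgroup.mem_top _)] at h5
  have hy : d⁻¹ * g ∈ C u := by
    rw [Subgroup.mem_centralizer_singleton_iff]
    have h6 : g * u = d * u * d⁻¹ * g := by
      rw [← h4]; group
    rw [mul_assoc, h6]; group
  have h7 : cs (d⁻¹ * g) (Subgroup.zpowers u) = Subgroup.zpowers u := by
    rw [H80.SU1.cs_zp]
    rw [Subgroup.mem_centralizer_singleton_iff] at hy
    rw [hy, mul_inv_cancel_right]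
  have h8 : cj (d⁻¹ * g) (bl M (C u) f) = bl M (C u) f := cj_mem_Z_self (isBlk_bl hf.1) hy
  have h9 : cj d⁻¹ e = e := cj_fix hmax.of.pair.blk.mem.2 (by
    intro x hx
    have hx2 : x ∈ Subgroup.centralizer (D : Set G) := hx.1
    rw [Subgroup.mem_centralizer_iff] at hx2
    exact hx2 _ (D.inv_mem hd))
  rw [h7, h8, h9] at h5
  exact h5

/-- (B) -/
theorem unique_local' (hM : IsPModular p M) {B : Set (IrrCharacter G)} (hB : IsPBlock M B) {D : Subgroup G}
    (hD : IsDefectGroup p M B D) {u : G} (hu : u ∈ D)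
    (hc : ∀ g : G, g * u * g⁻¹ ∈ D → ∃ d ∈ D, g * u * g⁻¹ = d * u * d⁻¹) {f f' : Set (IrrCharacter (C u))}
    (hf : IsInducedBlock M (C u) f B) (hf' : IsInducedBlock M (C u) f' B) : f = f' := by
  obtain ⟨e, hmax⟩ := exists_isMax_of_isDefectGroup hM hB hD
  have h1 := sle_of hM hB hmax hu hc hf
  have h2 := sle_of hM hB hmax hu hc hf'
  exact bl_inj hf.1 hf'.1 (SLE.unique hmax.of.pair h1 h2)

section two
variable {M : Ideal AlgInt} [M.IsMaximal] {G : Type u} [Group G] [Finite G]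
variable [CharP (ResF M) 2] [Algebra (ZMod 2) (ResF M)] [Algebra.IsAlgebraic (ZMod 2) (ResF M)]
  [IsAlgClosed (ResF M)]

/-- (B) -/
theorem unique_local (hM : IsPModular 2 M) {B : Set (IrrCharacter G)} (hB : IsPBlock M B) {D : Subgroup G}
    (hD : IsDefectGroup 2 M B D) {u : G} (hu : u ∈ D)
    (hc : ∀ g : G, g * u * g⁻¹ ∈ D → ∃ d ∈ D, g * u * g⁻¹ = d * u * d⁻¹) {f f' : Set (IrrCharacter (C u))}
    (hf : IsInducedBlock M (C u) f B) (hf' : IsInducedBlock M (C u) f' B) : f = f' :=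
  unique_local' hM hB hD hu hc hf hf'

end two

end H67.UniqLoc
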